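import Cfsg.Agent.SylowLarge.Linear
import Cfsg.Agent.SympSub.Count
import Cfsg.Agent.Linear.Torus

/-!
# Sylow subgroups of symplectic groups for large primes
-/

set_option autoImplicit false
set_option linter.style.haveILetI false
set_option linter.unusedSectionVars false

noncomputable section

namespace Cfsg.Agent.SylowLarge

open Module
open scoped Matrix MatrixGroups

variable {F : Type*} [Field F] [Fintype F]

section Rep

variable {R : Type*} [CommRing R] [Algebra F R]

/-- `SL₂` of a commutative algebra with a nondegenerate functional acts symplectically. -/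
theorem exists_sl_two_hom {n : ℕ} (μ : R →ₗ[F] F) (hμ : ∀ a : R, (∀ c, μ (a * c) = 0) → a = 0)
    (b : Basis (Fin n) F R) :
    ∃ φ : SL(2, R) →* Matrix.symplecticGroup (Fin n) F, Function.Injective φ := by
  classical
  let Γ : Matrix (Fin n) (Fin n) F := Matrix.of fun i j => μ (b i * b j)
  have hΓa : ∀ i j, Γ i j = μ (b i * b j) := fun i j => rfl
  have hΓt : Γᵀ = Γ := by
    ext i j
    rw [Matrix.transpose_apply, hΓa, hΓa, mul_comm]
  have hright : ∀ (z y : R), ∑ k, μ (z * b k) * b.repr y k = μ (z * y) := fun z y => by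
    conv_rhs => rw [← b.sum_repr y, Finset.mul_sum, map_sum]
    exact Finset.sum_congr rfl fun k _ => by rw [mul_smul_comm, map_smul, smul_eq_mul, mul_comm]
  let L := Algebra.leftMulMatrix b
  have hΓL : ∀ x, (L x)ᵀ * Γ = Γ * L x := by
    intro x
    ext i j
    simp only [Matrix.mul_apply, Matrix.transpose_apply, hΓa, L, Algebra.leftMulMatrix_eq_repr_mul]
    rw [hright, show ∑ k, b.repr (x * b i) k * μ (b k * b j) =
      ∑ k, μ (b j * b k) * b.repr (x * b i) k from
        Finset.sum_congr rfl fun k _ => by rw [mul_comm (b j), mul_comm], hright]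
    congr 1
    ring
  have hΓu : IsUnit Γ := by
    rw [← Matrix.mulVec_injective_iff_isUnit]
    intro v w hvw
    have h' : Γ.mulVec (v - w) = 0 := by rw [Matrix.mulVec_sub, hvw, sub_self]
    refine sub_eq_zero.1 ?_
    set y := b.equivFun.symm (v - w) with hy
    have hrep : ∀ k, b.repr y k = (v - w) k := fun k => by
      rw [hy, ← b.equivFun_apply, LinearEquiv.apply_symm_apply]
    have hy0 : y = 0 := by
      refine hμ y fun c => ?_
      have hb : ∀ i, μ (b i * y) = 0 := fun i => by
        rw [← hright]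
        have := congrFun h' i
        simp only [Matrix.mulVec, dotProduct, Pi.zero_apply] at this
        simpa [hΓa, hrep] using this
      rw [mul_comm, ← b.sum_repr c, Finset.sum_mul, map_sum]
      exact Finset.sum_eq_zero fun k _ => by rw [smul_mul_assoc, map_smul, hb, smul_zero]
    funext k
    rw [← hrep, hy0]
    simp
  have hΓd : IsUnit Γ.det := (Matrix.isUnit_iff_isUnit_det Γ).1 hΓu
  have hΓi : (Γ⁻¹)ᵀ = Γ⁻¹ := by rw [Matrix.transpose_nonsing_inv, hΓt]
  let D : Matrix (Fin n ⊕ Fin n) (Fin n ⊕ Fin n) F := Matrix.fromBlocks 1 0 0 Γ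
  let D' : Matrix (Fin n ⊕ Fin n) (Fin n ⊕ Fin n) F := Matrix.fromBlocks 1 0 0 Γ⁻¹
  have hDD : D' * D = 1 := by simp [D, D', Matrix.fromBlocks_multiply, Matrix.nonsing_inv_mul _ hΓd]
  have hDD' : D * D' = 1 := by simp [D, D', Matrix.fromBlocks_multiply, Matrix.mul_nonsing_inv _ hΓd]
  let N : SL(2, R) → Matrix (Fin n ⊕ Fin n) (Fin n ⊕ Fin n) F := fun A =>
    Matrix.fromBlocks (L (A.1 0 0)) (L (A.1 0 1)) (L (A.1 1 0)) (L (A.1 1 1))
  have hN1 : N 1 = 1 := by simp [N]
  have hNmul : ∀ A B, N (A * B) = N A * N B := fun A B => by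
    simp [N, Matrix.fromBlocks_multiply, Matrix.mul_apply, Fin.sum_univ_two]
  have hDt : Dᵀ = D := by simp [D, Matrix.fromBlocks_transpose, hΓt]
  have hDt' : D'ᵀ = D' := by simp [D', Matrix.fromBlocks_transpose, hΓi]
  have hform : ∀ A, (N A)ᵀ * (D * Matrix.J (Fin n) F * D) * N A = D * Matrix.J (Fin n) F * D := by
    intro A
    have hdet : A.1 0 0 * A.1 1 1 - A.1 0 1 * A.1 1 0 = 1 := by rw [← Matrix.det_fin_two]; exact A.2
    have hΓL2 : ∀ x y, (L x)ᵀ * Γ * L y = Γ * L (x * y) := fun x y => by rw [hΓL, map_mul, mul_assoc]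
    simp only [N, D, Matrix.J, Matrix.fromBlocks_transpose, Matrix.fromBlocks_multiply, mul_zero,
      zero_mul, add_zero, zero_add, mul_one, one_mul, mul_neg, neg_mul, neg_zero, hΓL2]
    simp only [← mul_neg, ← mul_add, ← map_neg, ← map_add]
    congr 1
    · rw [show A.1 1 0 * A.1 0 0 + A.1 0 0 * -A.1 1 0 = 0 by ring, map_zero, mul_zero]
    · rw [show A.1 1 0 * A.1 0 1 + A.1 0 0 * -A.1 1 1 = -1 by linear_combination -hdet, map_neg,
        map_one, mul_neg, mul_one]
    · rw [show A.1 1 1 * A.1 0 0 + A.1 0 1 * -A.1 1 0 = 1 by linear_combination hdet, map_one, mul_one]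
    · rw [show A.1 1 1 * A.1 0 1 + A.1 0 1 * -A.1 1 1 = 0 by ring, map_zero, mul_zero]
  have hmem : ∀ A, D * N A * D' ∈ Matrix.symplecticGroup (Fin n) F := fun A => by
    rw [SymplecticGroup.mem_iff', Matrix.transpose_mul, Matrix.transpose_mul, hDt, hDt']
    calc D' * ((N A)ᵀ * D) * Matrix.J (Fin n) F * (D * N A * D')
        = D' * ((N A)ᵀ * (D * Matrix.J (Fin n) F * D) * N A) * D' := by simp [mul_assoc]
      _ = (D' * D) * Matrix.J (Fin n) F * (D * D') := by rw [hform]; simp [mul_assoc]
      _ = _ := by rw [hDD, hDD']; simp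
  refine ⟨{ toFun := fun A => ⟨D * N A * D', hmem A⟩
            map_one' := Subtype.ext (by
              show D * N 1 * D' = 1
              rw [hN1, mul_one, hDD'])
            map_mul' := fun A B => Subtype.ext (by
              show D * N (A * B) * D' = D * N A * D' * (D * N B * D')
              rw [hNmul]
              calc D * (N A * N B) * D' = D * N A * (D' * D) * N B * D' := by rw [hDD]; simp [mul_assoc]
                _ = _ := by simp [mul_assoc]) }, fun A B h => ?_⟩
  have h' : D * N A * D' = D * N B * D' := congrArg Subtype.val h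
  have h2 : N A = N B := by
    calc N A = (D' * D) * N A * (D' * D) := by simp [hDD]
      _ = D' * (D * N A * D') * D := by simp [mul_assoc]
      _ = D' * (D * N B * D') * D := by rw [h']
      _ = (D' * D) * N B * (D' * D) := by simp [mul_assoc]
      _ = N B := by simp [hDD]
  obtain ⟨e00, e01, e10, e11⟩ := Matrix.fromBlocks_inj.1 h2
  have hinj := Algebra.leftMulMatrix_injective b
  refine Subtype.ext (Matrix.ext fun i j => ?_)
  fin_cases i <;> fin_cases j
  · exact hinj e00
  · exact hinj e01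
  · exact hinj e10
  · exact hinj e11

end Rep

variable {r : ℕ} [Fact r.Prime]

theorem padicValNat_card_sp {n : ℕ} (hr2 : r ≠ 2) (hrn : n < r) (hrq : ¬ r ∣ Fintype.card F) :
    padicValNat r (Nat.card (Matrix.symplecticGroup (Fin n) F)) =
      ((Finset.Icc 1 n).filter (fun i => orderOf (Fintype.card F : ZMod r) ∣ 2 * i)).card *
        cycExp (Fintype.card F) r := by
  set q := Fintype.card F with hq
  have h1 : 1 < q := Fintype.one_lt_card
  have hpos : ∀ i : ℕ, i ≠ 0 → q ^ i - 1 ≠ 0 := fun i hi => Nat.sub_ne_zero_of_lt (Nat.one_lt_pow hi h1)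
  rw [SympSub.card_symplecticGroup, SympSub.spOrder, ← hq]
  rw [padicValNat.mul (pow_ne_zero _ (by omega))
    (Finset.prod_ne_zero_iff.2 fun i _ => hpos _ (by omega)),
    padicValNat.eq_zero_of_not_dvd (not_dvd_pow hrq _), zero_add]
  have e : ∏ i ∈ Finset.range n, (q ^ (2 * (i + 1)) - 1) =
      ∏ j ∈ (Finset.Icc 1 n).image (fun i => 2 * i), (q ^ j - 1) := by
    rw [Finset.prod_image (fun a _ b _ h => by simpa using h), ← Finset.Ico_succ_right_eq_Icc,
      Finset.prod_Ico_eq_prod_range]
    simp [add_comm]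
  rw [e, padicValNat_prod h1 hrq _ (fun j hj h => ?_) (fun h => absurd h hr2), Finset.filter_image,
    Finset.card_image_of_injective _ (fun a b h => by simpa using h)]
  obtain ⟨i, hi, rfl⟩ := Finset.mem_image.1 hj
  rw [Finset.mem_Icc] at hi
  rcases (Fact.out : r.Prime).dvd_mul.1 h with h | h
  · exact hr2 ((Nat.prime_dvd_prime_iff_eq Fact.out Nat.prime_two).1 h)
  · have := Nat.le_of_dvd (by omega) h
    omega

theorem sp_sylow {n : ℕ} (hr2 : r ≠ 2) (hrn : n < r) (hrq : ¬ r ∣ Fintype.card F)
    (P : Sylow r ↥(Matrix.symplecticGroup (Fin n) F)) :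
    Nonempty (↥(P : Subgroup ↥(Matrix.symplecticGroup (Fin n) F)) ≃*
      (Fin ((Finset.Icc 1 n).filter (fun i => orderOf (Fintype.card F : ZMod r) ∣ 2 * i)).card →
        Multiplicative (ZMod (r ^ cycExp (Fintype.card F) r)))) := by
  classical
  set q := Fintype.card F with hq
  set d := orderOf (q : ZMod r) with hd
  have h1 : 1 < q := Fintype.one_lt_card
  have hr : r.Prime := Fact.out
  have hd0 : 0 < d := Arith.orderOf_natCast_pos hrq
  set e := if Even d then d / 2 else d with he
  have hde : ∀ i, d ∣ 2 * i ↔ e ∣ i := fun i => by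
    rcases Nat.even_or_odd d with h | h
    · rw [he, if_pos h]
      obtain ⟨t, ht⟩ := h
      rw [ht, ← two_mul, Nat.mul_div_cancel_left _ two_pos, Nat.mul_dvd_mul_iff_left two_pos]
    · rw [he, if_neg (Nat.not_even_iff_odd.2 h)]
      exact ⟨fun h' => (Nat.Coprime.dvd_mul_left (Nat.coprime_two_right.2 h)).1 h', fun h' => dvd_mul_of_dvd_right h' _⟩
  have he0 : 0 < e := by
    rw [he]
    split
    · next h => obtain ⟨t, ht⟩ := h; omega
    · exact hd0
  have hc : ((Finset.Icc 1 n).filter (fun i => d ∣ 2 * i)).card = n / e := by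
    rw [← card_filter_multiples n e]
    congr 1
    exact Finset.filter_congr fun i _ => hde i
  haveI : NeZero e := ⟨he0.ne'⟩
  obtain ⟨p, hp⟩ := CharP.exists F
  obtain ⟨-, hpp, -⟩ := FiniteField.card F p
  haveI := Fact.mk hpp
  let K := FiniteField.Extension F p e
  letI : Fintype K := Fintype.ofFinite K
  have hcardK : Fintype.card K = q ^ e := by
    rw [← Nat.card_eq_fintype_card, FiniteField.natCard_extension, Nat.card_eq_fintype_card]
  obtain ⟨m, hm, hmdvd⟩ : ∃ m, (m = q ^ e - 1 ∨ m = q ^ e + 1) ∧ r ^ cycExp q r ∣ m := by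
    rcases Nat.even_or_odd d with h | h
    · refine ⟨q ^ e + 1, Or.inr rfl, ?_⟩
      have hdd : d = 2 * e := by obtain ⟨t, ht⟩ := h; rw [he, if_pos ⟨t, ht⟩]; omega
      have h2 : r ^ cycExp q r ∣ (q ^ e + 1) * (q ^ e - 1) := by
        rw [cycExp_eq h1 hrq, ← Nat.sq_sub_sq, one_pow, ← pow_mul, mul_comm e, ← hdd]
        exact pow_padicValNat_dvd
      refine (Nat.Coprime.dvd_mul_right (Nat.Coprime.pow_left _ ((hr.coprime_iff_not_dvd).2 fun h' => ?_))).1 h2
      have := Nat.le_of_dvd he0 ((Arith.dvd_pow_sub_one_iff_orderOf_dvd (by omega) e).1 h')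
      omega
    · refine ⟨q ^ e - 1, Or.inl rfl, ?_⟩
      rw [cycExp_eq h1 hrq, show e = d by rw [he, if_neg (Nat.not_even_iff_odd.2 h)]]
      exact pow_padicValNat_dvd
  obtain ⟨t, -, hto, -, -⟩ := Linear.exists_torus (F := K) m (hcardK ▸ hm)
  obtain ⟨f, hf⟩ := exists_zmod_hom_of_orderOf (g := t) (hto ▸ hmdvd)
  set k := n / e with hk
  rw [hc]
  have hfin : finrank F ((Fin k → K) × (Fin (n - k * e) → F)) = n := by
    rw [Module.finrank_prod, Module.finrank_pi_fintype, Module.finrank_fin_fun]
    simp only [K, FiniteField.finrank_extension F p e, Finset.sum_const, Finset.card_univ, Fintype.card_fin,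
      smul_eq_mul]
    have : k * e ≤ n := Nat.div_mul_le_self n e
    omega
  obtain ⟨ν, hν⟩ : ∃ ν : K →ₗ[F] F, ν 1 ≠ 0 := by
    have := (Module.forall_dual_apply_eq_zero_iff F (1 : K)).not.2 one_ne_zero
    push Not at this
    exact this
  let μ : ((Fin k → K) × (Fin (n - k * e) → F)) →ₗ[F] F :=
    (∑ i : Fin k, ν.comp (LinearMap.proj i)).comp (LinearMap.fst F _ _) +
      (∑ j : Fin (n - k * e), LinearMap.proj j).comp (LinearMap.snd F _ _)
  have hμ : ∀ a : ((Fin k → K) × (Fin (n - k * e) → F)), (∀ c, μ (a * c) = 0) → a = 0 := by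
    intro a ha
    refine Prod.ext (funext fun i => ?_) (funext fun j => ?_)
    · by_contra hne
      have hne' : a.1 i ≠ 0 := hne
      have := ha (Pi.single i (a.1 i)⁻¹, 0)
      have ee : ((fun i' => a.1 i' * (Pi.single i (a.1 i)⁻¹ : Fin k → K) i') : Fin k → K) = Pi.single i 1 := by
        funext i'
        rcases eq_or_ne i' i with rfl | h
        · simp [mul_inv_cancel₀ hne']
        · simp [Pi.single_eq_of_ne h]
      have e1 : a * ((Pi.single i (a.1 i)⁻¹, 0) : ((Fin k → K) × (Fin (n - k * e) → F))) = (Pi.single i 1, 0) := Prod.ext ee (mul_zero a.2)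
      rw [e1] at this
      simp [μ] at this
      rw [Finset.sum_eq_single i (fun j _ hj => by simp [Pi.single_eq_of_ne hj]) (by simp),
        Pi.single_eq_same] at this
      exact hν this
    · have := ha (0, Pi.single j 1)
      simpa [μ, Pi.single_apply] using this
  obtain ⟨φ, hφ⟩ := exists_sl_two_hom μ hμ (Module.finBasisOfFinrankEq F ((Fin k → K) × (Fin (n - k * e) → F)) hfin)
  let mU : (Fin k → Multiplicative (ZMod (r ^ cycExp q r))) →
      Matrix (Fin 2) (Fin 2) ((Fin k → K) × (Fin (n - k * e) → F)) := fun x =>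
    Matrix.of fun a b => ((fun i => (f (x i)).1 a b), if a = b then 1 else 0)
  have hmU : ∀ x, (mU x).det = 1 := fun x => by
    rw [Matrix.det_fin_two]
    refine Prod.ext (funext fun i => ?_) ?_
    · have h := (f (x i)).2
      rw [Matrix.det_fin_two] at h
      exact h
    · simp [mU]
  have hmmul : ∀ x y, mU (x * y) = mU x * mU y := fun x y => by
    refine Matrix.ext fun a b => ?_
    rw [Matrix.mul_apply, Fin.sum_univ_two]
    refine Prod.ext (funext fun i => ?_) ?_
    · have h : (f ((x * y) i)).1 = (f (x i)).1 * (f (y i)).1 := by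
        rw [Pi.mul_apply, map_mul]; rfl
      have h' := congrFun (congrFun h a) b
      rw [Matrix.mul_apply, Fin.sum_univ_two] at h'
      exact h'
    · fin_cases a <;> fin_cases b <;> simp [mU]
  let u : (Fin k → Multiplicative (ZMod (r ^ cycExp q r))) →* SL(2, ((Fin k → K) × (Fin (n - k * e) → F))) :=
    { toFun := fun x => ⟨mU x, hmU x⟩
      map_one' := Subtype.ext (Matrix.ext fun a b => by
        refine Prod.ext (funext fun i => ?_) ?_
        · have h : (f ((1 : Fin k → Multiplicative (ZMod (r ^ cycExp q r))) i)).1 = (1 : Matrix (Fin 2) (Fin 2) K) := by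
            rw [Pi.one_apply, map_one]; rfl
          show (f _).1 a b = _
          rw [h]
          fin_cases a <;> fin_cases b <;> simp
        · fin_cases a <;> fin_cases b <;> simp [mU])
      map_mul' := fun x y => Subtype.ext (hmmul x y) }
  have hu : Function.Injective u := fun x y h => funext fun i => hf (Subtype.ext (Matrix.ext fun a b =>
    congrFun (congrArg Prod.fst (congrFun (congrFun (congrArg Subtype.val h) a) b)) i))
  refine sylow_equiv P (φ.comp u) (hφ.comp hu) ?_
  rw [card_pi_zmod, padicValNat_card_sp hr2 hrn hrq, ← hd, hc]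

end Cfsg.Agent.SylowLarge
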